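import Cfsg.Agent.H716.KGV.Cliff
import Cfsg.Agent.H595.GoUp
import Cfsg.Agent.Characters.Central

/-!
# S4577, classical rows: the character part (helper352)

* `mul_of_comm` : `χ(ab) χ(1) = χ(a) χ(b)` for elements of commuting factors;
* `swap_inv` : an automorphism `β` which interchanges two factors of `A` by means of `α` fixes the `α`-invariant
  characters;
* `char_swap` : Clifford: `C ⊴ A` of index at most 4, `β α² β⁻¹ α⁻²` fixes the `α`-invariant character `θ` of `C`.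
-/

set_option autoImplicit false
set_option linter.style.haveILetI false

open Cfsg

namespace Cfsg.Agent.H352.KS

open Cfsg.Agent.Characters.Core Cfsg.Agent.Characters
open Cfsg.Agent.OddOrderCharacters Cfsg.Agent.OddOrderCharacters.NormalInduced
open Cfsg.Agent.H672 (Over over_iff)

theorem mul_of_comm {A : Type*} [Group A] [Finite A] {χ : A → ℂ} (hχ : IsIrrCharacter A χ) {a b : A}
    (h : ∀ g : A, ∃ p q : A, g = p * q ∧ q * a = a * q ∧ p * b = b * p) : χ (a * b) * χ 1 = χ a * χ b := by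
  classical
  have := Fintype.ofFinite A
  have h1 := Central.sum_char_conj_mul hχ a b
  have h2 : ∀ g : A, χ (g * a * g⁻¹ * b) = χ (a * b) := by
    intro g
    obtain ⟨p, q, rfl, hq, hp⟩ := h g
    have e : p * q * a * (p * q)⁻¹ * b = p * (a * b) * p⁻¹ := by
      have e1 : q * a * q⁻¹ = a := by rw [hq, mul_inv_cancel_right]
      have e2 : p⁻¹ * b = b * p⁻¹ := by
        rw [← mul_right_inj p, mul_inv_cancel_left, ← mul_assoc, hp, mul_inv_cancel_right]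
      calc p * q * a * (p * q)⁻¹ * b = p * (q * a * q⁻¹) * (p⁻¹ * b) := by group
        _ = p * (a * b) * p⁻¹ := by rw [e1, e2]; group
    rw [e]
    exact isIrr_isClassFunction hχ (a * b) p
  have hne := isIrr_apply_one_ne_zero hχ
  have hc : (Nat.card A : ℂ) ≠ 0 := by
    exact_mod_cast Nat.card_pos.ne'
  rw [Finset.sum_congr rfl fun g _ => h2 g, Finset.sum_const, Finset.card_univ, nsmul_eq_mul,
    ← Nat.card_eq_fintype_card, eq_div_iff hne, mul_assoc, mul_assoc] at h1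
  exact mul_left_cancel₀ hc h1

section Three

variable {A : Type*} [Group A] [Finite A] {A1 A2 A0 : Subgroup A} (h12 : ∀ a ∈ A1, ∀ b ∈ A2, a * b = b * a)
  (h10 : ∀ a ∈ A1, ∀ c ∈ A0, a * c = c * a) (h20 : ∀ b ∈ A2, ∀ c ∈ A0, b * c = c * b)
  (hgen : ∀ g : A, ∃ a ∈ A1, ∃ b ∈ A2, ∃ c ∈ A0, g = a * b * c)
include h12 h10 h20 hgen

theorem mul3 {χ : A → ℂ} (hχ : IsIrrCharacter A χ) {a b c : A} (ha : a ∈ A1) (hb : b ∈ A2) (hc : c ∈ A0) :
    χ (a * b * c) * (χ 1 * χ 1) = χ a * χ b * χ c := by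
  have e1 : χ (a * (b * c)) * χ 1 = χ a * χ (b * c) := by
    apply mul_of_comm hχ
    intro g
    obtain ⟨a', ha', b', hb', c', hc', rfl⟩ := hgen g
    refine ⟨a', b' * c', by group, ?_, ?_⟩
    · rw [mul_assoc, ← h10 a ha c' hc', ← mul_assoc, ← h12 a ha b' hb', mul_assoc]
    · rw [← mul_assoc, h12 a' ha' b hb, mul_assoc, h10 a' ha' c hc, mul_assoc]
  have e2 : χ (b * c) * χ 1 = χ b * χ c := by
    apply mul_of_comm hχ
    intro g
    obtain ⟨a', ha', b', hb', c', hc', rfl⟩ := hgen g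
    refine ⟨b', a' * c', ?_, ?_, ?_⟩
    · rw [h12 a' ha' b' hb', mul_assoc]
    · rw [mul_assoc, ← h20 b hb c' hc', ← mul_assoc, h12 a' ha' b hb, mul_assoc]
    · exact h20 b' hb' c hc
  calc χ (a * b * c) * (χ 1 * χ 1) = (χ (a * (b * c)) * χ 1) * χ 1 := by rw [mul_assoc a b c]; ring
    _ = χ a * (χ (b * c) * χ 1) := by rw [e1]; ring
    _ = χ a * χ b * χ c := by rw [e2]; ring

theorem swap_inv (α β : MulAut A) (hα1 : ∀ a ∈ A1, α a ∈ A2) (hα2 : ∀ b ∈ A2, α⁻¹ b ∈ A1)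
    (hβ1 : ∀ a ∈ A1, β a = α a) (hβ2 : ∀ b ∈ A2, β b = α⁻¹ b) (hβ0 : ∀ c ∈ A0, β c = c)
    {χ : A → ℂ} (hχ : IsIrrCharacter A χ) (hα : ∀ a, χ (α a) = χ a) (g : A) : χ (β g) = χ g := by
  obtain ⟨a, ha, b, hb, c, hc, rfl⟩ := hgen g
  have hα' : ∀ a, χ (α⁻¹ a) = χ a := fun a => by
    rw [← hα (α⁻¹ a), MulAut.apply_inv_self]
  have hne := isIrr_apply_one_ne_zero hχ
  have e : β (a * b * c) = α⁻¹ b * α a * c := by
    rw [map_mul, map_mul, hβ1 a ha, hβ2 b hb, hβ0 c hc, ← h12 _ (hα2 b hb) _ (hα1 a ha)]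
  have h1 := mul3 h12 h10 h20 hgen hχ (hα2 b hb) (hα1 a ha) hc
  have h2 := mul3 h12 h10 h20 hgen hχ ha hb hc
  rw [hα, hα'] at h1
  apply mul_right_cancel₀ (mul_ne_zero hne hne)
  rw [e, h1, h2]
  ring

end Three

/-- a permutation of order `5 ^ m` of a set with at most four elements is trivial -/
theorem fixed_of_five {Ω : Type*} [Finite Ω] (hΩ : Nat.card Ω ≤ 4) (T : Ω → Ω) {m : ℕ} (h : ∀ w, T^[5 ^ m] w = w)
    (w : Ω) : T w = w := by
  have := Fintype.ofFinite Ω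
  have hd : Function.minimalPeriod T w ∣ 5 ^ m := Function.IsPeriodicPt.minimalPeriod_dvd (h w)
  have hle : Function.minimalPeriod T w ≤ Fintype.card Ω := Function.minimalPeriod_le_card
  rw [← Nat.card_eq_fintype_card] at hle
  obtain ⟨j, -, hj⟩ := (Nat.dvd_prime_pow (by norm_num)).1 hd
  have h1 : Function.minimalPeriod T w = 1 := by
    rcases Nat.eq_zero_or_pos j with h0 | h0
    · rw [hj, h0, pow_zero]
    · exfalso
      have : 5 ^ 1 ≤ 5 ^ j := Nat.pow_le_pow_right (by norm_num) h0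
      omega
  exact Function.minimalPeriod_eq_one_iff_isFixedPt.1 h1

/-- **Clifford.** -/
theorem char_swap {A : Type*} [Group A] [Finite A] (C : Subgroup A) [hN : C.Normal] (h4 : C.index ≤ 4) (α β : MulAut A)
    (hα : ∀ a, α a ∈ C ↔ a ∈ C) (hβ : ∀ a, β a ∈ C ↔ a ∈ C) {m : ℕ} (hm : α ^ 5 ^ m = 1)
    (hK : ∀ a, α (α a) * a⁻¹ ∈ C) {θ : C → ℂ} (hθ : IsIrrCharacter C θ)
    (hαθ : ∀ c c' : C, (c' : A) = α c → θ c' = θ c)
    (hH : ∀ χ : A → ℂ, IsIrrCharacter A χ → (∀ a, χ (α a) = χ a) → ∀ a, χ (β a) = χ a) :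
    ∀ c c' : C, (c' : A) = β (α (α (β⁻¹ (α⁻¹ (α⁻¹ c))))) → θ c' = θ c := by
  classical
  have := Fintype.ofFinite A
  have := Fintype.ofFinite C
  -- the restrictions of the automorphisms
  let res : ∀ γ : MulAut A, (∀ a, γ a ∈ C ↔ a ∈ C) → (C ≃* C) := fun γ hγ =>
    { toFun := fun c => ⟨γ c, (hγ c).2 c.2⟩
      invFun := fun c => ⟨γ⁻¹ c, (hγ _).1 (by rw [MulAut.apply_inv_self]; exact c.2)⟩
      left_inv := fun c => Subtype.ext (MulAut.inv_apply_self _ γ c)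
      right_inv := fun c => Subtype.ext (MulAut.apply_inv_self _ γ c)
      map_mul' := fun c c' => Subtype.ext (map_mul γ (c : A) c') }
  have hres : ∀ γ hγ (c : C), ((res γ hγ c : C) : A) = γ c := fun _ _ _ => rfl
  have hover : ∀ (γ : MulAut A) (hγ : ∀ a, γ a ∈ C ↔ a ∈ C) (χ : A → ℂ) (η : C → ℂ), Over C.subtype χ η →
      Over C.subtype (χ ∘ γ) (η ∘ res γ hγ) := by
    intro γ hγ χ η h
    rw [over_iff] at h ⊢
    rw [← H595.Solv.classInner_comp_equiv (res γ hγ)] at h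
    exact h
  have hθα : θ ∘ res α hα = θ := by
    funext c
    exact hαθ c _ rfl
  -- a character over `θ`
  obtain ⟨χ, hχ⟩ := H595.GoUp.exists_over C.subtype C.subtype_injective ⟨θ, hθ⟩
  have hχ' : Over C.subtype (χ : A → ℂ) θ := (over_iff _ _ _).2 hχ
  let Ω := {χ : IrrCharacter A // Over C.subtype (χ : A → ℂ) θ}
  haveI : Finite (IrrCharacter A) := finite_irr
  have hΩ : Nat.card Ω ≤ 4 := by
    have hT := H716.KGV.nOver_le C hθ (PF9.CliffGen.inertia C θ) rfl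
      (QuotientGroup.mk' (C.subgroupOf (PF9.CliffGen.inertia C θ))) (QuotientGroup.mk'_surjective _)
      (QuotientGroup.ker_mk' _)
    have h1 : Nat.card (ConjClasses (PF9.CliffGen.inertia C θ ⧸ C.subgroupOf (PF9.CliffGen.inertia C θ))) ≤
        Nat.card (PF9.CliffGen.inertia C θ ⧸ C.subgroupOf (PF9.CliffGen.inertia C θ)) :=
      Nat.card_le_card_of_surjective _ ConjClasses.mk_surjective
    have h2 : Nat.card (PF9.CliffGen.inertia C θ ⧸ C.subgroupOf (PF9.CliffGen.inertia C θ)) ≤ C.index :=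
      Nat.le_of_dvd (Nat.pos_of_ne_zero Subgroup.index_ne_zero_of_finite)
        (Subgroup.relIndex_dvd_index_of_normal C (PF9.CliffGen.inertia C θ))
    exact hT.trans (h1.trans (h2.trans h4))
  have hirr : ∀ χ : IrrCharacter A, IsIrrCharacter A ((χ : A → ℂ) ∘ α) := fun χ =>
    isIrr_comp α.toMonoidHom α.surjective χ.2
  let T : Ω → Ω := fun χ => ⟨⟨(χ.1 : A → ℂ) ∘ α, hirr χ.1⟩, by
    have h1 := hover α hα (χ.1 : A → ℂ) θ χ.2
    rw [hθα] at h1
    exact h1⟩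
  have hTk : ∀ (k : ℕ) (χ : Ω) (a : A), (((T^[k] χ).1 : IrrCharacter A) : A → ℂ) a = (χ.1 : A → ℂ) ((α ^ k) a) := by
    intro k
    induction k with
    | zero => intro χ a; simp
    | succ k ih =>
      intro χ a
      rw [Function.iterate_succ_apply, ih, pow_succ']
      rfl
  have hfix := fixed_of_five hΩ T (m := m) (fun w => by
    apply Subtype.ext
    apply Subtype.ext
    funext a
    rw [hTk, hm]
    rfl) ⟨χ, hχ'⟩
  have hχα : ∀ a, (χ : A → ℂ) (α a) = (χ : A → ℂ) a := fun a =>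
    congrFun (congrArg (fun w : Ω => (w.1 : A → ℂ)) hfix) a
  have hχβ := hH _ χ.2 hχα
  -- Clifford
  have hβirr : IsIrrCharacter C (θ ∘ res β hβ) := isIrr_comp (res β hβ).toMonoidHom (res β hβ).surjective hθ
  have hov : Over C.subtype (χ : A → ℂ) (θ ∘ res β hβ) := by
    have h1 := hover β hβ (χ : A → ℂ) θ hχ'
    have h2 : (χ : A → ℂ) ∘ β = (χ : A → ℂ) := funext hχβ
    rw [h2] at h1
    exact h1
  obtain ⟨g, hg⟩ := H716.KGV.exists_conjFn_of_over C χ.2 hθ hβirr hχ' hov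
  have hg' : ∀ c c1 c2 : C, (c1 : A) = β c → (c2 : A) = g * c * g⁻¹ → θ c1 = θ c2 := by
    intro c c1 c2 h1 h2
    have h3 := congrFun hg c
    have e1 : c1 = res β hβ c := Subtype.ext h1
    have e2 : c2 = ⟨g * c * g⁻¹, hN.conj_mem c c.2 g⟩ := Subtype.ext h2
    rw [e1, e2]
    exact h3
  intro c c' hc'
  -- `θ(γ c) = θ(g (α² β⁻¹ α⁻² c) g⁻¹)`
  let c1 : C := res α⁻¹ (fun a => by rw [← hα (α⁻¹ a), MulAut.apply_inv_self])
    (res α⁻¹ (fun a => by rw [← hα (α⁻¹ a), MulAut.apply_inv_self]) c)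
  have hc1 : (c1 : A) = α⁻¹ (α⁻¹ c) := rfl
  let c2 : C := res β⁻¹ (fun a => by rw [← hβ (β⁻¹ a), MulAut.apply_inv_self]) c1
  have hc2 : (c2 : A) = β⁻¹ (α⁻¹ (α⁻¹ c)) := rfl
  let c3 : C := res α hα (res α hα c2)
  have hc3 : (c3 : A) = α (α c2) := rfl
  let c4 : C := ⟨g * c3 * g⁻¹, hN.conj_mem c3 c3.2 g⟩
  have e1 : θ c' = θ c4 := hg' c3 c' c4 (by rw [hc', hc3, hc2]) rfl
  -- `g = k α²(g')`
  obtain ⟨g', hg''⟩ : ∃ g', α (α g') = g := ⟨α⁻¹ (α⁻¹ g), by rw [MulAut.apply_inv_self, MulAut.apply_inv_self]⟩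
  let c5 : C := ⟨g' * c2 * g'⁻¹, hN.conj_mem c2 c2.2 g'⟩
  have e2 : θ c4 = θ c5 := by
    have h1 := hαθ c5 (res α hα c5) rfl
    have h2 := hαθ (res α hα c5) (res α hα (res α hα c5)) rfl
    rw [← h1, ← h2]
    congr 1
    apply Subtype.ext
    show g * c3 * g⁻¹ = α (α (g' * c2 * g'⁻¹))
    rw [map_mul, map_mul, map_mul, map_mul, map_inv, map_inv, hg'', hc3]
  -- `g = k g'`, `k ∈ C`
  let k : C := ⟨g * g'⁻¹, by rw [← hg'']; exact hK g'⟩
  let c6 : C := ⟨g * c2 * g⁻¹, hN.conj_mem c2 c2.2 g⟩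
  have e3 : θ c6 = θ c5 := by
    have h1 := isIrr_isClassFunction hθ c5 k
    rw [← h1]
    congr 1
    apply Subtype.ext
    show g * c2 * g⁻¹ = g * g'⁻¹ * (g' * c2 * g'⁻¹) * (g * g'⁻¹)⁻¹
    group
  have e4 : θ c1 = θ c6 := hg' c2 c1 c6 (by rw [hc1, hc2, MulAut.apply_inv_self]) rfl
  have e5 : θ c = θ c1 := by
    have h1 := hαθ c1 (res α hα c1) rfl
    have h2 := hαθ (res α hα c1) (res α hα (res α hα c1)) rfl
    rw [← h1, ← h2]
    congr 1
    apply Subtype.ext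
    show (c : A) = α (α c1)
    rw [hc1, MulAut.apply_inv_self, MulAut.apply_inv_self]
  rw [e1, e2, ← e3, ← e4, ← e5]

end Cfsg.Agent.H352.KS
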