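import Cfsg.Agent.H352.KS.Defs
import Cfsg.Agent.H352.KS.Chars
import Cfsg.Agent.H352.KS.Ring

/-!
# S4577, classical rows: the assembly (helper352)

`noCfgB_of` : `PA`, `PC` and a frame give `NoCfgB S`.
-/

set_option autoImplicit false
set_option linter.style.haveILetI false

open Cfsg Cfsg.Agent.H613.KS

namespace Cfsg.Agent.H352.KS

section Cut

variable {R : Type*} [Ring R]

/-- `g` on the image of `r`, `1` on the kernel -/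
def cut (g : Rˣ) (r : R) (hr : r * r = r) (hg : r * (g : R) = g * r) : Rˣ where
  val := g * r + (1 - r)
  inv := (g⁻¹ : Rˣ) * r + (1 - r)
  val_inv := by
    have hg' : r * ((g⁻¹ : Rˣ) : R) = (g⁻¹ : Rˣ) * r := by
      rw [Units.eq_inv_mul_iff_mul_eq, ← mul_assoc, ← hg, mul_assoc, Units.mul_inv, mul_one]
    have h1 : (g : R) * r * ((g⁻¹ : Rˣ) * r) = r := by
      rw [mul_assoc, ← mul_assoc r, hg', mul_assoc, hr, ← mul_assoc, Units.mul_inv, one_mul]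
    have h2 : (g : R) * r * (1 - r) = 0 := by rw [mul_assoc, mul_sub, mul_one, hr, sub_self, mul_zero]
    have h3 : (1 - r) * ((g⁻¹ : Rˣ) * r) = 0 := by
      rw [← hg', ← mul_assoc, sub_mul, one_mul, hr, sub_self, zero_mul]
    have h4 : (1 - r) * (1 - r) = 1 - r := by rw [mul_sub, mul_one, sub_mul, one_mul, hr, sub_self, sub_zero]
    rw [add_mul, mul_add, mul_add, h1, h2, h3, h4]
    abel
  inv_val := by
    have hg' : r * ((g⁻¹ : Rˣ) : R) = (g⁻¹ : Rˣ) * r := by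
      rw [Units.eq_inv_mul_iff_mul_eq, ← mul_assoc, ← hg, mul_assoc, Units.mul_inv, mul_one]
    have h1 : ((g⁻¹ : Rˣ) : R) * r * ((g : R) * r) = r := by
      rw [mul_assoc, ← mul_assoc r, hg, mul_assoc, hr, ← mul_assoc, Units.inv_mul, one_mul]
    have h2 : ((g⁻¹ : Rˣ) : R) * r * (1 - r) = 0 := by rw [mul_assoc, mul_sub, mul_one, hr, sub_self, mul_zero]
    have h3 : (1 - r) * ((g : R) * r) = 0 := by
      rw [← hg, ← mul_assoc, sub_mul, one_mul, hr, sub_self, zero_mul]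
    have h4 : (1 - r) * (1 - r) = 1 - r := by rw [mul_sub, mul_one, sub_mul, one_mul, hr, sub_self, sub_zero]
    rw [add_mul, mul_add, mul_add, h1, h2, h3, h4]
    abel

theorem cut_val (g : Rˣ) (r : R) (hr : r * r = r) (hg : r * (g : R) = g * r) :
    (cut g r hr hg : R) = g * r + (1 - r) := rfl

theorem cut_mul_self (g : Rˣ) (r : R) (hr : r * r = r) (hg : r * (g : R) = g * r) :
    (cut g r hr hg : R) * (1 - r) = 1 - r := by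
  rw [cut_val, add_mul, mul_assoc, mul_sub, mul_one, hr, sub_self, mul_zero, zero_add, mul_sub, mul_one, sub_mul,
    one_mul, hr, sub_self, sub_zero]

theorem cut_mul_orth (g : Rˣ) (r s : R) (hr : r * r = r) (hg : r * (g : R) = g * r) (hrs : r * s = 0) :
    (cut g r hr hg : R) * s = s := by
  rw [cut_val, add_mul, mul_assoc, hrs, mul_zero, zero_add, sub_mul, one_mul, hrs, sub_zero]

theorem comm_of_sub {a b : R} (h : (a - 1) * (b - 1) = (b - 1) * (a - 1)) : a * b = b * a := by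
  have e1 : a * b = (a - 1) * (b - 1) + a + b - 1 := by noncomm_ring
  have e2 : b * a = (b - 1) * (a - 1) + a + b - 1 := by noncomm_ring
  rw [e1, e2, h]

/-- the elements of `A` with `a r = r` -/
def fixer (A : Subgroup Rˣ) (r : R) : Subgroup A where
  carrier := {a | ((a : Rˣ) : R) * r = r}
  one_mem' := by
    show (((1 : A) : Rˣ) : R) * r = r
    rw [Subgroup.coe_one, Units.val_one, one_mul]
  mul_mem' := by
    intro a b ha hb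
    show (((a * b : A) : Rˣ) : R) * r = r
    rw [Subgroup.coe_mul, Units.val_mul, mul_assoc, hb, ha]
  inv_mem' := by
    intro a ha
    show (((a⁻¹ : A) : Rˣ) : R) * r = r
    have ha' : ((a : Rˣ) : R) * r = r := ha
    rw [Subgroup.coe_inv]
    nth_rewrite 1 [← ha']
    rw [← mul_assoc, Units.inv_mul, one_mul]

theorem mem_fixer {A : Subgroup Rˣ} {r : R} {a : A} : a ∈ fixer A r ↔ ((a : Rˣ) : R) * r = r := Iff.rfl

end Cut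

section Lift

variable {R S : Type*} [Ring R] [Group S] {σ : R →+ R} {I X : Subgroup Rˣ} {π : X →* S}

theorem Frame.ker_sq (hF : Frame σ I X π) {z : X} (hz : π z = 1) : z * z = 1 := by
  apply Subtype.ext
  apply Units.ext
  rw [Subgroup.coe_mul, Units.val_mul, Subgroup.coe_one, Units.val_one]
  rcases hF.ker z hz with h | h
  · rw [h, one_mul]
  · rw [h, neg_mul_neg, one_mul]

/-- a lift of order a power of 5 -/
theorem lift_five (hF : Frame σ I X π) {y : S} (hy : ∃ m : ℕ, orderOf y = 5 ^ m) :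
    ∃ y₀ : X, π y₀ = y ∧ ∃ m : ℕ, orderOf y₀ = 5 ^ m := by
  obtain ⟨m, hm⟩ := hy
  obtain ⟨g, rfl⟩ := hF.surj y
  have h1 : π (g ^ 5 ^ m) = 1 := by rw [map_pow, ← hm, pow_orderOf_eq_one]
  have h2 := hF.ker_sq h1
  refine ⟨g ^ (5 ^ m + 1), ?_, ?_⟩
  · rw [pow_succ, map_mul, h1, one_mul]
  · have h3 : Odd (5 ^ m) := Odd.pow (by decide)
    obtain ⟨k, hk⟩ := h3
    have h4 : (g ^ (5 ^ m + 1)) ^ 5 ^ m = 1 := by
      rw [← pow_mul, mul_comm, pow_mul]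
      have h5 : 5 ^ m + 1 = 2 * (k + 1) := by omega
      rw [h5, pow_mul, sq, h2, one_pow]
    obtain ⟨j, -, hj⟩ := (Nat.dvd_prime_pow (by norm_num)).1 (orderOf_dvd_of_pow_eq_one h4)
    exact ⟨j, hj⟩

theorem Frame.star (hF : Frame σ I X π) {u : Rˣ} (hu : u ∈ I) : σ (u : R) = ((u⁻¹ : Rˣ) : R) := by
  have h := (hF.mem u).1 hu
  calc σ (u : R) = σ (u : R) * u * ((u⁻¹ : Rˣ) : R) := by rw [mul_assoc, Units.mul_inv, mul_one]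
    _ = _ := by rw [h, one_mul]

end Lift

section Main

variable {R S : Type*} [Ring R] [Group S] {σ : R →+ R} {I X : Subgroup Rˣ} {π : X →* S}

/-- the isometries commuting with `D₀` -/
def AA (I : Subgroup Rˣ) {X : Subgroup Rˣ} (D₀ : Subgroup X) : Subgroup Rˣ :=
  I ⊓ Subgroup.centralizer (D₀.map X.subtype : Set Rˣ)

theorem mem_AA {D₀ : Subgroup X} {u : Rˣ} : u ∈ AA I D₀ ↔ u ∈ I ∧ ∀ d ∈ D₀, (d : Rˣ) * u = u * d := by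
  unfold AA
  rw [Subgroup.mem_inf, Subgroup.mem_centralizer_iff]
  refine and_congr_right fun _ => ⟨fun h d hd => h d ⟨d, hd, rfl⟩, ?_⟩
  rintro h _ ⟨d, hd, rfl⟩
  exact h d hd

theorem AA_conj {D₀ : Subgroup X} {u : Rˣ} (hu : u ∈ I)
    (hn : u ∈ Subgroup.normalizer (D₀.map X.subtype : Set Rˣ)) : u ∈ Subgroup.normalizer (AA I D₀ : Set Rˣ) := by
  have key : ∀ v : Rˣ, v ∈ I → v ∈ Subgroup.normalizer (D₀.map X.subtype : Set Rˣ) → ∀ a ∈ AA I D₀,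
      v * a * v⁻¹ ∈ AA I D₀ := by
    intro v hv hvn a ha
    have ha2 : a ∈ Subgroup.centralizer (D₀.map X.subtype : Set Rˣ) := ha.2
    rw [Subgroup.mem_centralizer_iff] at ha2
    refine ⟨I.mul_mem (I.mul_mem hv ha.1) (I.inv_mem hv), ?_⟩
    show v * a * v⁻¹ ∈ Subgroup.centralizer (D₀.map X.subtype : Set Rˣ)
    rw [Subgroup.mem_centralizer_iff]
    intro d hd
    have h1 : v⁻¹ * d * v ∈ D₀.map X.subtype := by
      have := (Subgroup.mem_normalizer_iff.1 (inv_mem hvn) d).1 hd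
      rwa [inv_inv] at this
    have h2 := ha2 _ h1
    calc d * (v * a * v⁻¹) = v * ((v⁻¹ * d * v) * a) * v⁻¹ := by group
      _ = v * (a * (v⁻¹ * d * v)) * v⁻¹ := by rw [h2]
      _ = _ := by group
  rw [Subgroup.mem_normalizer_iff]
  intro a
  refine ⟨key u hu hn a, fun h => ?_⟩
  have := key u⁻¹ (I.inv_mem hu) (inv_mem hn) _ h
  have e : u⁻¹ * (u * a * u⁻¹) * u⁻¹⁻¹ = a := by group
  rwa [e] at this

section Data

variable (hF : Frame σ I X π) {D : Subgroup S} {y₀ : X} {D₀ : Subgroup X} {e : R} {t : X}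
  (hw : Wt σ X π D y₀ D₀ e t)

include hF hw

/-- `e_i e = 0` -/
theorem orth' (i : ℕ) (h1 : 1 ≤ i) (h4 : i ≤ 4) :
    (((y₀ ^ i : X) : Rˣ) : R) * e * (((y₀ ^ i : X)⁻¹ : X) : Rˣ) * e = 0 := by
  have h := congrArg σ (hw.orth i h1 h4)
  have hy : ((y₀ ^ i : X) : Rˣ) ∈ I := hF.le (y₀ ^ i : X).2
  have hy' : (((y₀ ^ i : X)⁻¹ : X) : Rˣ) ∈ I := hF.le ((y₀ ^ i : X)⁻¹ : X).2
  rw [map_zero, hF.anti, hF.anti, hF.anti, hw.star, hF.star hy, hF.star hy'] at h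
  rw [Subgroup.coe_inv, inv_inv] at h
  rw [Subgroup.coe_inv]
  rw [← h]
  simp only [mul_assoc]

theorem sw : Sw ((y₀ : Rˣ) : R) (((y₀ : Rˣ)⁻¹ : Rˣ) : R) e (((y₀ : Rˣ) : R) * e * (((y₀ : Rˣ)⁻¹ : Rˣ) : R)) := by
  have h1 := hw.orth 1 le_rfl (by norm_num)
  have h1' := orth' hF hw 1 le_rfl (by norm_num)
  rw [pow_one, Subgroup.coe_inv] at h1 h1'
  refine ⟨Units.mul_inv _, Units.inv_mul _, hw.idem, ?_, h1, h1', ?_, ?_⟩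
  · calc ((y₀ : Rˣ) : R) * e * (((y₀ : Rˣ)⁻¹ : Rˣ) : R) * (((y₀ : Rˣ) : R) * e * (((y₀ : Rˣ)⁻¹ : Rˣ) : R))
        = ((y₀ : Rˣ) : R) * e * ((((y₀ : Rˣ)⁻¹ : Rˣ) : R) * ((y₀ : Rˣ) : R)) * e * (((y₀ : Rˣ)⁻¹ : Rˣ) : R) := by
          simp only [mul_assoc]
      _ = _ := by rw [Units.inv_mul, mul_one, mul_assoc _ e e, hw.idem]
  · rw [mul_assoc _ _ ((y₀ : Rˣ) : R), Units.inv_mul, mul_one]
  · rw [← mul_assoc, ← mul_assoc, Units.inv_mul, one_mul]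

/-- the swap of the first two weight spaces -/
noncomputable def ww : Rˣ where
  val := Wv ((y₀ : Rˣ) : R) (((y₀ : Rˣ)⁻¹ : Rˣ) : R) e (((y₀ : Rˣ) : R) * e * (((y₀ : Rˣ)⁻¹ : Rˣ) : R))
  inv := Wv ((y₀ : Rˣ) : R) (((y₀ : Rˣ)⁻¹ : Rˣ) : R) e (((y₀ : Rˣ) : R) * e * (((y₀ : Rˣ)⁻¹ : Rˣ) : R))
  val_inv := (sw hF hw).WW
  inv_val := (sw hF hw).WW

theorem ww_val : (ww hF hw : R) =
    Wv ((y₀ : Rˣ) : R) (((y₀ : Rˣ)⁻¹ : Rˣ) : R) e (((y₀ : Rˣ) : R) * e * (((y₀ : Rˣ)⁻¹ : Rˣ) : R)) := rfl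

theorem ww_inv : (ww hF hw)⁻¹ = ww hF hw := rfl

theorem ww_sq : ww hF hw * ww hF hw = 1 := Units.ext (sw hF hw).WW

theorem ww_mem : ww hF hw ∈ I := by
  rw [hF.mem, ww_val]
  have h := sw hF hw
  have hy : (y₀ : Rˣ) ∈ I := hF.le y₀.2
  have hy' : (y₀ : Rˣ)⁻¹ ∈ I := I.inv_mem hy
  have h1 : σ (((y₀ : Rˣ) : R) * e * (((y₀ : Rˣ)⁻¹ : Rˣ) : R)) = ((y₀ : Rˣ) : R) * e * (((y₀ : Rˣ)⁻¹ : Rˣ) : R) := by
    rw [hF.anti, hF.anti, hw.star, hF.star hy, hF.star hy', inv_inv, mul_assoc]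
  have h2 : σ (Wv ((y₀ : Rˣ) : R) (((y₀ : Rˣ)⁻¹ : Rˣ) : R) e (((y₀ : Rˣ) : R) * e * (((y₀ : Rˣ)⁻¹ : Rˣ) : R))) =
      Wv ((y₀ : Rˣ) : R) (((y₀ : Rˣ)⁻¹ : Rˣ) : R) e (((y₀ : Rˣ) : R) * e * (((y₀ : Rˣ)⁻¹ : Rˣ) : R)) := by
    unfold Wv
    rw [map_add, map_add, map_sub, map_sub, hF.one, hF.anti, hF.anti _ (((y₀ : Rˣ) : R) * e * _), h1, hw.star,
      hF.star hy, hF.star hy', inv_inv, ← h.y'e, ← h.ye, add_comm (_ * (((y₀ : Rˣ) : R) * e * _))]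
  rw [h2]
  exact h.WW

/-- `D₀` in the group of units -/
theorem ww_norm : ww hF hw ∈ Subgroup.normalizer (D₀.map X.subtype : Set Rˣ) := by
  have h := sw hF hw
  have key : ∀ d ∈ D₀, ww hF hw * (d : Rˣ) * (ww hF hw)⁻¹ ∈ D₀.map X.subtype := by
    intro d hd
    have hcomm : ∀ d ∈ D₀, ∀ d' ∈ D₀, d * d' = d' * d := by
      intro a ha b hb
      have h3 := hw.sq _ (mul_mem ha hb)
      have h4 := hw.sq a ha
      have h5 := hw.sq b hb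
      calc a * b = a * b * ((b * a) * (b * a)) := by rw [hw.sq _ (mul_mem hb ha), mul_one]
        _ = a * (b * b) * a * (b * a) := by simp only [mul_assoc]
        _ = b * a := by rw [h5, mul_one, h4, one_mul]
    have hce : ∀ d ∈ D₀, e * ((d : Rˣ) : R) = (d : Rˣ) * e := by
      intro d hd
      refine hw.cent _ fun d' hd' => ?_
      have := hcomm d' hd' d hd
      exact congrArg (fun u : X => ((u : Rˣ) : R)) this
    have hd1 : y₀⁻¹ * d * y₀ ∈ D₀ := by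
      rw [← hw.norm]
      have e1 : y₀ * (y₀⁻¹ * d * y₀) * y₀⁻¹ = d := by group
      rwa [e1]
    have hdY : ((d : Rˣ) : R) * ((y₀ : Rˣ) : R) = ((y₀ : Rˣ) : R) * (((y₀⁻¹ * d * y₀ : X) : Rˣ) : R) := by
      have e1 : d * y₀ = y₀ * (y₀⁻¹ * d * y₀) := by group
      exact congrArg (fun u : X => ((u : Rˣ) : R)) e1
    have hYd : (((y₀ : Rˣ)⁻¹ : Rˣ) : R) * ((d : Rˣ) : R) = (((y₀⁻¹ * d * y₀ : X) : Rˣ) : R) * (((y₀ : Rˣ)⁻¹ : Rˣ) : R) := by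
      have e1 : y₀⁻¹ * d = (y₀⁻¹ * d * y₀) * y₀⁻¹ := by group
      exact congrArg (fun u : X => ((u : Rˣ) : R)) e1
    set y : R := ((y₀ : Rˣ) : R) with hy
    set y' : R := (((y₀ : Rˣ)⁻¹ : Rˣ) : R) with hy'
    set e1 : R := y * e * y' with he1
    set δ : R := ((d : Rˣ) : R) with hδ
    set δ1 : R := (((y₀⁻¹ * d * y₀ : X) : Rˣ) : R) with hδ1
    have c0 : e * δ = δ * e := hce d hd
    have c1 : e1 * δ = δ * e1 := by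
      calc e1 * δ = y * e * (y' * δ) := by rw [he1, mul_assoc]
        _ = y * (e * δ1) * y' := by rw [hYd]; simp only [mul_assoc]
        _ = y * (δ1 * e) * y' := by rw [hce _ hd1]
        _ = (y * δ1) * e * y' := by simp only [mul_assoc]
        _ = δ * e1 := by rw [← hdY]; simp only [he1, mul_assoc]
    have s0 : δ * e = e ∨ δ * e = -e := hw.sgn d hd
    have s1 : δ * e1 = e1 ∨ δ * e1 = -e1 := by
      have e2 : δ * e1 = y * (δ1 * e) * y' := by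
        calc δ * e1 = (δ * y) * e * y' := by simp only [he1, mul_assoc]
          _ = _ := by rw [hdY]; simp only [mul_assoc]
      rcases hw.sgn _ hd1 with h6 | h6
      · left
        rw [e2, h6]
      · right
        rw [e2, h6, mul_neg, neg_mul]
    have hval : ((ww hF hw * (d : Rˣ) * (ww hF hw)⁻¹ : Rˣ) : R) = Wv y y' e e1 * δ * Wv y y' e e1 := rfl
    have hmul : ∀ s : R, s * e + s * e1 = s * (e + e1) := fun s => (mul_add _ _ _).symm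
    have hsplit : δ * e + δ * e1 + δ * (1 - e - e1) = δ := by
      rw [mul_sub, mul_sub, mul_one]
      abel
    have hw1 : ∀ s : R, (s = 1 ∨ s = -1) → Wv y y' e e1 * s = s * Wv y y' e e1 := by
      rintro s (rfl | rfl)
      · rw [mul_one, one_mul]
      · rw [mul_neg, mul_one, neg_mul, one_mul]
    have same : Wv y y' e e1 * δ * Wv y y' e e1 = δ → ww hF hw * (d : Rˣ) * (ww hF hw)⁻¹ ∈ D₀.map X.subtype := by
      intro h7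
      have : ww hF hw * (d : Rˣ) * (ww hF hw)⁻¹ = d := Units.ext (hval.trans h7)
      rw [this]
      exact ⟨d, hd, rfl⟩
    have diff : Wv y y' e e1 * δ * Wv y y' e e1 = δ * (1 - 2 * (e + e1)) →
        ww hF hw * (d : Rˣ) * (ww hF hw)⁻¹ ∈ D₀.map X.subtype := by
      intro h7
      have : ww hF hw * (d : Rˣ) * (ww hF hw)⁻¹ = (d * t : X) := by
        apply Units.ext
        rw [hval, h7, Subgroup.coe_mul, Units.val_mul, hw.val]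
        rfl
      rw [this]
      exact ⟨d * t, mul_mem hd hw.mem, rfl⟩
    rcases s0 with s0 | s0 <;> rcases s1 with s1 | s1
    · apply same
      rw [h.W_diag (s0 := 1) (s1 := 1) c0 c1 (by rw [s0, one_mul]) (by rw [s1, one_mul]) (hw1 _ (Or.inl rfl))
        (hw1 _ (Or.inl rfl))]
      conv_rhs => rw [← hsplit, s0, s1]
      rw [one_mul, one_mul]
      abel
    · apply diff
      rw [h.W_diag (s0 := 1) (s1 := -1) c0 c1 (by rw [s0, one_mul]) (by rw [s1, neg_one_mul]) (hw1 _ (Or.inl rfl))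
        (hw1 _ (Or.inr rfl))]
      rw [two_mul, mul_sub, mul_sub, mul_sub, mul_add, mul_add, mul_one, s0, s1]
      noncomm_ring
    · apply diff
      rw [h.W_diag (s0 := -1) (s1 := 1) c0 c1 (by rw [s0, neg_one_mul]) (by rw [s1, one_mul]) (hw1 _ (Or.inr rfl))
        (hw1 _ (Or.inl rfl))]
      rw [two_mul, mul_sub, mul_sub, mul_sub, mul_add, mul_add, mul_one, s0, s1]
      noncomm_ring
    · apply same
      rw [h.W_diag (s0 := -1) (s1 := -1) c0 c1 (by rw [s0, neg_one_mul]) (by rw [s1, neg_one_mul])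
        (hw1 _ (Or.inr rfl)) (hw1 _ (Or.inr rfl))]
      conv_rhs => rw [← hsplit, s0, s1]
      rw [neg_one_mul, neg_one_mul]
      abel
  rw [Subgroup.mem_normalizer_iff]
  intro d
  constructor
  · rintro ⟨d, hd, rfl⟩
    exact key d hd
  · rintro ⟨d', hd', h'⟩
    have h2 := key d' hd'
    have h3 : (d' : Rˣ) = ww hF hw * d * (ww hF hw)⁻¹ := h'
    rw [h3, ww_inv] at h2
    have h4 : ww hF hw * (ww hF hw * d * ww hF hw) * ww hF hw = d := by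
      calc ww hF hw * (ww hF hw * d * ww hF hw) * ww hF hw = (ww hF hw * ww hF hw) * d * (ww hF hw * ww hF hw) := by
            simp only [mul_assoc]
        _ = d := by rw [ww_sq, one_mul, mul_one]
    rwa [h4] at h2

omit hF in
theorem y_norm : (y₀ : Rˣ) ∈ Subgroup.normalizer (D₀.map X.subtype : Set Rˣ) := by
  rw [Subgroup.mem_normalizer_iff]
  intro d
  constructor
  · rintro ⟨d, hd, rfl⟩
    exact ⟨y₀ * d * y₀⁻¹, (hw.norm d).2 hd, rfl⟩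
  · rintro ⟨d', hd', h'⟩
    refine ⟨y₀⁻¹ * d' * y₀, (hw.norm _).1 ?_, ?_⟩
    · have e1 : y₀ * (y₀⁻¹ * d' * y₀) * y₀⁻¹ = d' := by group
      rw [e1]
      exact hd'
    · have h3 : (d' : Rˣ) = y₀ * d * (y₀ : Rˣ)⁻¹ := h'
      show ((y₀⁻¹ * d' * y₀ : X) : Rˣ) = d
      rw [Subgroup.coe_mul, Subgroup.coe_mul, Subgroup.coe_inv, h3]
      group

/-- the conjugate of the swap -/
noncomputable def vv : Rˣ := (y₀ : Rˣ) ^ 2 * ww hF hw * ((y₀ : Rˣ) ^ 2)⁻¹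

theorem vv_sq : vv hF hw * vv hF hw = 1 := by
  unfold vv
  calc (y₀ : Rˣ) ^ 2 * ww hF hw * ((y₀ : Rˣ) ^ 2)⁻¹ * ((y₀ : Rˣ) ^ 2 * ww hF hw * ((y₀ : Rˣ) ^ 2)⁻¹)
      = (y₀ : Rˣ) ^ 2 * (ww hF hw * ww hF hw) * ((y₀ : Rˣ) ^ 2)⁻¹ := by group
    _ = 1 := by rw [ww_sq, mul_one, mul_inv_cancel]

omit hF in
/-- orthogonality of the conjugates -/
theorem ortho (i j : ℕ) (h1 : i < j) (h4 : j ≤ i + 4) :
    ((y₀ : Rˣ) ^ i : Rˣ) * e * (((y₀ : Rˣ) ^ i)⁻¹ : Rˣ) * (((y₀ : Rˣ) ^ j : Rˣ) * e * (((y₀ : Rˣ) ^ j)⁻¹ : Rˣ)) = 0 := by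
  obtain ⟨k, rfl⟩ : ∃ k, j = i + k := ⟨j - i, by omega⟩
  have h := hw.orth k (by omega) (by omega)
  rw [Subgroup.coe_inv, Subgroup.coe_pow] at h
  have e1 : ((y₀ : Rˣ) ^ (i + k) : Rˣ) = (y₀ : Rˣ) ^ i * (y₀ : Rˣ) ^ k := pow_add _ _ _
  rw [e1, mul_inv_rev, Units.val_mul, Units.val_mul]
  calc (((y₀ : Rˣ) ^ i : Rˣ) : R) * e * ((((y₀ : Rˣ) ^ i)⁻¹ : Rˣ) : R) *
        ((((y₀ : Rˣ) ^ i : Rˣ) : R) * (((y₀ : Rˣ) ^ k : Rˣ) : R) * e *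
          (((((y₀ : Rˣ) ^ k)⁻¹ : Rˣ) : R) * ((((y₀ : Rˣ) ^ i)⁻¹ : Rˣ) : R)))
      = (((y₀ : Rˣ) ^ i : Rˣ) : R) * e * (((((y₀ : Rˣ) ^ i)⁻¹ : Rˣ) : R) * (((y₀ : Rˣ) ^ i : Rˣ) : R)) *
        ((((y₀ : Rˣ) ^ k : Rˣ) : R) * e * ((((y₀ : Rˣ) ^ k)⁻¹ : Rˣ) : R)) * ((((y₀ : Rˣ) ^ i)⁻¹ : Rˣ) : R) := by
        simp only [mul_assoc]
    _ = (((y₀ : Rˣ) ^ i : Rˣ) : R) * (e * ((((y₀ : Rˣ) ^ k : Rˣ) : R) * e * ((((y₀ : Rˣ) ^ k)⁻¹ : Rˣ) : R))) *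
        ((((y₀ : Rˣ) ^ i)⁻¹ : Rˣ) : R) := by
        rw [Units.inv_mul, mul_one]
        simp only [mul_assoc]
    _ = 0 := by rw [h, mul_zero, zero_mul]

theorem ortho' (i j : ℕ) (h1 : i < j) (h4 : j ≤ i + 4) :
    ((y₀ : Rˣ) ^ j : Rˣ) * e * (((y₀ : Rˣ) ^ j)⁻¹ : Rˣ) * (((y₀ : Rˣ) ^ i : Rˣ) * e * (((y₀ : Rˣ) ^ i)⁻¹ : Rˣ)) = 0 := by
  have h := congrArg σ (ortho hw i j h1 h4)
  have hy : ∀ i, (y₀ : Rˣ) ^ i ∈ I := fun i => I.pow_mem (hF.le y₀.2) i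
  rw [map_zero, hF.anti, hF.anti, hF.anti, hF.anti, hF.anti, hw.star, hF.star (hy i), hF.star (hy j),
    hF.star (I.inv_mem (hy i)), hF.star (I.inv_mem (hy j)), inv_inv, inv_inv] at h
  rw [← h]
  simp only [mul_assoc]

/-- `E_2 + E_3` is orthogonal to `e`, `e1` -/
theorem gg : (((y₀ : Rˣ) ^ 2 : Rˣ) : R) * (e + ((y₀ : Rˣ) : R) * e * (((y₀ : Rˣ)⁻¹ : Rˣ) : R)) *
      ((((y₀ : Rˣ) ^ 2)⁻¹ : Rˣ) : R) * (e + ((y₀ : Rˣ) : R) * e * (((y₀ : Rˣ)⁻¹ : Rˣ) : R)) = 0 ∧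
    (e + ((y₀ : Rˣ) : R) * e * (((y₀ : Rˣ)⁻¹ : Rˣ) : R)) * ((((y₀ : Rˣ) ^ 2 : Rˣ) : R) *
      (e + ((y₀ : Rˣ) : R) * e * (((y₀ : Rˣ)⁻¹ : Rˣ) : R)) * ((((y₀ : Rˣ) ^ 2)⁻¹ : Rˣ) : R)) = 0 := by
  have e1 : (((y₀ : Rˣ) ^ 2 : Rˣ) : R) * (e + ((y₀ : Rˣ) : R) * e * (((y₀ : Rˣ)⁻¹ : Rˣ) : R)) *
      ((((y₀ : Rˣ) ^ 2)⁻¹ : Rˣ) : R) =
      ((y₀ : Rˣ) ^ 2 : Rˣ) * e * (((y₀ : Rˣ) ^ 2)⁻¹ : Rˣ) + ((y₀ : Rˣ) ^ 3 : Rˣ) * e * (((y₀ : Rˣ) ^ 3)⁻¹ : Rˣ) := by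
    have e2 : ((y₀ : Rˣ) ^ 3 : Rˣ) = (y₀ : Rˣ) ^ 2 * y₀ := pow_succ _ _
    rw [e2, mul_inv_rev, Units.val_mul, Units.val_mul, mul_add, add_mul]
    simp only [mul_assoc]
  have e3 : e + ((y₀ : Rˣ) : R) * e * (((y₀ : Rˣ)⁻¹ : Rˣ) : R) =
      ((y₀ : Rˣ) ^ 0 : Rˣ) * e * (((y₀ : Rˣ) ^ 0)⁻¹ : Rˣ) + ((y₀ : Rˣ) ^ 1 : Rˣ) * e * (((y₀ : Rˣ) ^ 1)⁻¹ : Rˣ) := by
    rw [pow_zero, pow_one, inv_one, Units.val_one, one_mul, mul_one]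
  rw [e1, e3]
  constructor
  · rw [add_mul, mul_add, mul_add, ortho' hF hw 0 2 (by norm_num) (by norm_num),
      ortho' hF hw 1 2 (by norm_num) (by norm_num), ortho' hF hw 0 3 (by norm_num) (by norm_num),
      ortho' hF hw 1 3 (by norm_num) (by norm_num)]
    simp
  · rw [add_mul, mul_add, mul_add, ortho hw 0 2 (by norm_num) (by norm_num),
      ortho hw 1 2 (by norm_num) (by norm_num), ortho hw 0 3 (by norm_num) (by norm_num),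
      ortho hw 1 3 (by norm_num) (by norm_num)]
    simp

omit hF hw in
theorem _root_.Cfsg.Agent.H352.KS.Sw.Wsub {y y' e e1 : R} (h : Sw y y' e e1) :
    (Wv y y' e e1 - 1) * (e + e1) = Wv y y' e e1 - 1 := by
  rw [sub_mul, mul_add, h.We, h.We1, one_mul]
  unfold Wv
  abel

omit hF hw in
theorem _root_.Cfsg.Agent.H352.KS.Sw.subW {y y' e e1 : R} (h : Sw y y' e e1) :
    (e + e1) * (Wv y y' e e1 - 1) = Wv y y' e e1 - 1 := by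
  rw [mul_sub, add_mul, h.eW, h.e1W, mul_one]
  unfold Wv
  abel

/-- `v - 1 = (v - 1) g = g (v - 1)` -/
theorem vv_sub : (vv hF hw : R) - 1 = (((y₀ : Rˣ) ^ 2 : Rˣ) : R) * ((ww hF hw : R) - 1) *
    ((((y₀ : Rˣ) ^ 2)⁻¹ : Rˣ) : R) := by
  unfold vv
  rw [Units.val_mul, Units.val_mul, mul_sub, mul_one, sub_mul, Units.mul_inv]

theorem vv_sub_mul : ((vv hF hw : R) - 1) * (e + ((y₀ : Rˣ) : R) * e * (((y₀ : Rˣ)⁻¹ : Rˣ) : R)) = 0 := by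
  have h := sw hF hw
  rw [vv_sub, ww_val, ← h.Wsub]
  calc (((y₀ : Rˣ) ^ 2 : Rˣ) : R) * ((Wv ((y₀ : Rˣ) : R) (((y₀ : Rˣ)⁻¹ : Rˣ) : R) e
          (((y₀ : Rˣ) : R) * e * (((y₀ : Rˣ)⁻¹ : Rˣ) : R)) - 1) *
          (e + ((y₀ : Rˣ) : R) * e * (((y₀ : Rˣ)⁻¹ : Rˣ) : R))) * ((((y₀ : Rˣ) ^ 2)⁻¹ : Rˣ) : R) *
          (e + ((y₀ : Rˣ) : R) * e * (((y₀ : Rˣ)⁻¹ : Rˣ) : R))
      = (((y₀ : Rˣ) ^ 2 : Rˣ) : R) * (Wv ((y₀ : Rˣ) : R) (((y₀ : Rˣ)⁻¹ : Rˣ) : R) e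
          (((y₀ : Rˣ) : R) * e * (((y₀ : Rˣ)⁻¹ : Rˣ) : R)) - 1) *
          (((((y₀ : Rˣ) ^ 2)⁻¹ : Rˣ) : R) * (((y₀ : Rˣ) ^ 2 : Rˣ) : R)) *
          ((e + ((y₀ : Rˣ) : R) * e * (((y₀ : Rˣ)⁻¹ : Rˣ) : R))) * ((((y₀ : Rˣ) ^ 2)⁻¹ : Rˣ) : R) *
          (e + ((y₀ : Rˣ) : R) * e * (((y₀ : Rˣ)⁻¹ : Rˣ) : R)) := by
        rw [Units.inv_mul, mul_one]
        simp only [mul_assoc]
    _ = (((y₀ : Rˣ) ^ 2 : Rˣ) : R) * (Wv ((y₀ : Rˣ) : R) (((y₀ : Rˣ)⁻¹ : Rˣ) : R) e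
          (((y₀ : Rˣ) : R) * e * (((y₀ : Rˣ)⁻¹ : Rˣ) : R)) - 1) *
          ((((y₀ : Rˣ) ^ 2)⁻¹ : Rˣ) : R) * ((((y₀ : Rˣ) ^ 2 : Rˣ) : R) *
          ((e + ((y₀ : Rˣ) : R) * e * (((y₀ : Rˣ)⁻¹ : Rˣ) : R))) * ((((y₀ : Rˣ) ^ 2)⁻¹ : Rˣ) : R) *
          (e + ((y₀ : Rˣ) : R) * e * (((y₀ : Rˣ)⁻¹ : Rˣ) : R))) := by
        simp only [mul_assoc]
    _ = 0 := by rw [(gg hF hw).1, mul_zero]

theorem mul_vv_sub : (e + ((y₀ : Rˣ) : R) * e * (((y₀ : Rˣ)⁻¹ : Rˣ) : R)) * ((vv hF hw : R) - 1) = 0 := by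
  have h := sw hF hw
  rw [vv_sub, ww_val, ← h.subW]
  calc (e + ((y₀ : Rˣ) : R) * e * (((y₀ : Rˣ)⁻¹ : Rˣ) : R)) * ((((y₀ : Rˣ) ^ 2 : Rˣ) : R) *
          ((e + ((y₀ : Rˣ) : R) * e * (((y₀ : Rˣ)⁻¹ : Rˣ) : R)) * (Wv ((y₀ : Rˣ) : R) (((y₀ : Rˣ)⁻¹ : Rˣ) : R) e
          (((y₀ : Rˣ) : R) * e * (((y₀ : Rˣ)⁻¹ : Rˣ) : R)) - 1)) * ((((y₀ : Rˣ) ^ 2)⁻¹ : Rˣ) : R))
      = (e + ((y₀ : Rˣ) : R) * e * (((y₀ : Rˣ)⁻¹ : Rˣ) : R)) * (((y₀ : Rˣ) ^ 2 : Rˣ) : R) *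
          (e + ((y₀ : Rˣ) : R) * e * (((y₀ : Rˣ)⁻¹ : Rˣ) : R)) *
          (((((y₀ : Rˣ) ^ 2)⁻¹ : Rˣ) : R) * (((y₀ : Rˣ) ^ 2 : Rˣ) : R)) * (Wv ((y₀ : Rˣ) : R) (((y₀ : Rˣ)⁻¹ : Rˣ) : R) e
          (((y₀ : Rˣ) : R) * e * (((y₀ : Rˣ)⁻¹ : Rˣ) : R)) - 1) * ((((y₀ : Rˣ) ^ 2)⁻¹ : Rˣ) : R) := by
        rw [Units.inv_mul, mul_one]
        simp only [mul_assoc]
    _ = ((e + ((y₀ : Rˣ) : R) * e * (((y₀ : Rˣ)⁻¹ : Rˣ) : R)) * ((((y₀ : Rˣ) ^ 2 : Rˣ) : R) *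
          (e + ((y₀ : Rˣ) : R) * e * (((y₀ : Rˣ)⁻¹ : Rˣ) : R)) *
          ((((y₀ : Rˣ) ^ 2)⁻¹ : Rˣ) : R))) * ((((y₀ : Rˣ) ^ 2 : Rˣ) : R) * (Wv ((y₀ : Rˣ) : R) (((y₀ : Rˣ)⁻¹ : Rˣ) : R) e
          (((y₀ : Rˣ) : R) * e * (((y₀ : Rˣ)⁻¹ : Rˣ) : R)) - 1) * ((((y₀ : Rˣ) ^ 2)⁻¹ : Rˣ) : R)) := by
        simp only [mul_assoc]
    _ = 0 := by rw [(gg hF hw).2, zero_mul]

/-- `v e = e` -/
theorem vv_e : (vv hF hw : R) * e = e := by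
  have h := sw hF hw
  have h1 : ((vv hF hw : R) - 1) * (e + ((y₀ : Rˣ) : R) * e * (((y₀ : Rˣ)⁻¹ : Rˣ) : R)) * e = 0 := by
    rw [vv_sub_mul, zero_mul]
  rw [mul_assoc, add_mul, h.ee, h.e1e, add_zero, sub_mul, one_mul] at h1
  exact sub_eq_zero.1 h1

theorem vv_comm : vv hF hw * ww hF hw = ww hF hw * vv hF hw := by
  have h := sw hF hw
  have h1 : ((vv hF hw : R) - 1) * ((ww hF hw : R) - 1) = 0 := by
    rw [ww_val, ← h.subW, ← mul_assoc, vv_sub_mul, zero_mul]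
  have h2 : ((ww hF hw : R) - 1) * ((vv hF hw : R) - 1) = 0 := by
    rw [ww_val, ← h.Wsub, mul_assoc, mul_vv_sub, mul_zero]
  apply Units.ext
  rw [Units.val_mul, Units.val_mul]
  exact comm_of_sub (h1.trans h2.symm)

end Data

end Main

end Cfsg.Agent.H352.KS
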