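import Cfsg.Agent.H352.KS.Asm

/-!
# S4577, classical rows: the criterion (helper352)

`noCfgB_of` : `PA`, `PC` and a frame give `NoCfgB S`.
-/

set_option autoImplicit false
set_option linter.style.haveILetI false

open Cfsg Cfsg.Agent.H613.KS
open Cfsg.Agent.Characters.Core Cfsg.Agent.Characters

namespace Cfsg.Agent.H352.KS

section Gen

variable {R : Type*} [Ring R]

theorem cut_mul {g r s : R} (hr : r * g = g * r) (hrs : r * s = 0) :
    (g * r + (1 - r)) * (g * s + (1 - s)) = g * (r + s) + (1 - (r + s)) := by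
  have h1 : g * r * (g * s) = 0 := by
    rw [mul_assoc, ← mul_assoc r, hr, mul_assoc g r s, hrs, mul_zero, mul_zero]
  have h2 : g * r * (1 - s) = g * r := by rw [mul_sub, mul_one, mul_assoc, hrs, mul_zero, sub_zero]
  have h3 : (1 - r) * (g * s) = g * s := by
    rw [sub_mul, one_mul, ← mul_assoc, hr, mul_assoc, hrs, mul_zero, sub_zero]
  have h4 : (1 - r) * (1 - s) = 1 - (r + s) := by
    rw [mul_sub, mul_one, sub_mul, one_mul, hrs]
    abel
  rw [add_mul, mul_add, mul_add, h1, h2, h3, h4, mul_add]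
  abel

/-- conjugation by an element of the normalizer -/
noncomputable def nh {G : Type*} [Group G] (A : Subgroup G) (u : G) (hu : u ∈ Subgroup.normalizer (A : Set G)) : MulAut A :=
  A.normalizerMonoidHom ⟨u, hu⟩

theorem nh_coe {G : Type*} [Group G] (A : Subgroup G) (u : G) (hu : u ∈ Subgroup.normalizer (A : Set G)) (a : A) :
    ((nh A u hu a : A) : G) = u * a * u⁻¹ := rfl

theorem nh_inv_coe {G : Type*} [Group G] (A : Subgroup G) (u : G) (hu : u ∈ Subgroup.normalizer (A : Set G)) (a : A) :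
    (((nh A u hu)⁻¹ a : A) : G) = u⁻¹ * a * u := by
  have h1 : (nh A u hu)⁻¹ = nh A u⁻¹ (inv_mem hu) := by
    unfold nh
    rw [← map_inv]
    rfl
  rw [h1, nh_coe, inv_inv]

theorem nh_pow {G : Type*} [Group G] (A : Subgroup G) (u : G) (hu : u ∈ Subgroup.normalizer (A : Set G)) {n : ℕ}
    (h : u ^ n = 1) : nh A u hu ^ n = 1 := by
  unfold nh
  rw [← map_pow]
  have : (⟨u, hu⟩ : Subgroup.normalizer (A : Set G)) ^ n = 1 := Subtype.ext h
  rw [this, map_one]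

end Gen

section Main

variable {R S : Type*} [Ring R] [Group S] {σ : R →+ R} {I X : Subgroup Rˣ} {π : X →* S}

theorem X_norm (hF : Frame σ I X π) {u g : Rˣ} (hu : u ∈ I) (hg : g ∈ X) : u * g * u⁻¹ ∈ X := by
  have h1 := X.mul_mem (hF.comm u hu g (hF.le hg)) hg
  have e1 : u * g * u⁻¹ * g⁻¹ * g = u * g * u⁻¹ := by group
  rwa [e1] at h1

variable (hF : Frame σ I X π) {D : Subgroup S} {y₀ : X} {D₀ : Subgroup X} {e : R} {t : X}
  (hw : Wt σ X π D y₀ D₀ e t)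

include hw in
theorem AA_e {a : Rˣ} (ha : a ∈ AA I D₀) : e * (a : R) = a * e :=
  hw.cent _ fun d hd => congrArg Units.val ((mem_AA.1 ha).2 d hd)

include hF hw

theorem hyN : (y₀ : Rˣ) ∈ Subgroup.normalizer (AA I D₀ : Set Rˣ) := AA_conj (hF.le y₀.2) (y_norm hw)

theorem hwN : ww hF hw ∈ Subgroup.normalizer (AA I D₀ : Set Rˣ) := AA_conj (ww_mem hF hw) (ww_norm hF hw)

theorem AA_e1 {a : Rˣ} (ha : a ∈ AA I D₀) : ((y₀ : Rˣ) : R) * e * (((y₀ : Rˣ)⁻¹ : Rˣ) : R) * (a : R) =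
    a * (((y₀ : Rˣ) : R) * e * (((y₀ : Rˣ)⁻¹ : Rˣ) : R)) := by
  have h1 : (y₀ : Rˣ)⁻¹ * a * (y₀ : Rˣ) ∈ AA I D₀ := by
    have := (Subgroup.mem_normalizer_iff.1 (inv_mem (hyN hF hw)) a).1 ha
    rwa [inv_inv] at this
  have h2 := AA_e hw h1
  rw [Units.val_mul, Units.val_mul] at h2
  calc ((y₀ : Rˣ) : R) * e * (((y₀ : Rˣ)⁻¹ : Rˣ) : R) * (a : R)
      = ((y₀ : Rˣ) : R) * (e * ((((y₀ : Rˣ)⁻¹ : Rˣ) : R) * a * ((y₀ : Rˣ) : R))) * (((y₀ : Rˣ)⁻¹ : Rˣ) : R) := by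
        simp only [mul_assoc, Units.mul_inv, mul_one]
    _ = ((y₀ : Rˣ) : R) * ((((y₀ : Rˣ)⁻¹ : Rˣ) : R) * a * ((y₀ : Rˣ) : R) * e) * (((y₀ : Rˣ)⁻¹ : Rˣ) : R) := by rw [h2]
    _ = _ := by
        simp only [← mul_assoc, Units.mul_inv, one_mul]

omit hw in
theorem cut_mem {a : Rˣ} (ha : a ∈ AA I D₀) {r : R} (hr : r * r = r) (hs : σ r = r) (hra : r * (a : R) = a * r)
    (hrd : ∀ d ∈ D₀, ((d : Rˣ) : R) * r = r * (d : Rˣ)) : cut a r hr hra ∈ AA I D₀ := by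
  rw [mem_AA]
  have hra' : r * ((a⁻¹ : Rˣ) : R) = (a⁻¹ : Rˣ) * r := by
    rw [Units.eq_inv_mul_iff_mul_eq, ← mul_assoc, ← hra, mul_assoc, Units.mul_inv, mul_one]
  constructor
  · rw [hF.mem]
    have h1 : σ (cut a r hr hra : R) = ((cut a r hr hra)⁻¹ : Rˣ) := by
      rw [cut_val, map_add, map_sub, hF.one, hF.anti, hs, hF.star (mem_AA.1 ha).1, hra']
      rfl
    rw [h1, Units.inv_mul]
  · intro d hd
    apply Units.ext
    rw [Units.val_mul, Units.val_mul, cut_val, mul_add, add_mul, mul_sub, sub_mul, mul_one, one_mul, hrd d hd,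
      ← mul_assoc, ← Units.val_mul, (mem_AA.1 ha).2 d hd, Units.val_mul, mul_assoc, hrd d hd, mul_assoc]

/-- **the swap fixes the invariant characters** -/
theorem char_inv [Finite R] {χ : AA I D₀ → ℂ} (hχ : IsIrrCharacter (AA I D₀) χ)
    (hα : ∀ a, χ (nh (AA I D₀) (y₀ : Rˣ) (hyN hF hw) a) = χ a) (a : AA I D₀) :
    χ (nh (AA I D₀) (ww hF hw) (hwN hF hw) a) = χ a := by
  have h := sw hF hw
  have hyI : (y₀ : Rˣ) ∈ I := hF.le y₀.2
  have hDcomm : ∀ d ∈ D₀, (d : Rˣ) ∈ AA I D₀ := by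
    intro d hd
    rw [mem_AA]
    refine ⟨hF.le d.2, fun d' hd' => ?_⟩
    have h3 := hw.sq _ (mul_mem hd' hd)
    have h4 := hw.sq d hd
    have h5 := hw.sq d' hd'
    have h6 : d' * d = d * d' := by
      calc d' * d = d' * d * ((d * d') * (d * d')) := by rw [hw.sq _ (mul_mem hd hd'), mul_one]
        _ = d' * (d * d) * d' * (d * d') := by simp only [mul_assoc]
        _ = d * d' := by rw [h4, mul_one, h5, one_mul]
    exact congrArg Subtype.val h6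
  set y : R := ((y₀ : Rˣ) : R) with hy
  set y' : R := (((y₀ : Rˣ)⁻¹ : Rˣ) : R) with hy'
  set e1 : R := y * e * y' with he1
  have he1s : σ e1 = e1 := by
    rw [he1, hF.anti, hF.anti, hw.star, hF.star hyI, hF.star (I.inv_mem hyI), inv_inv, ← mul_assoc]
  have c0 : ∀ a ∈ AA I D₀, e * (a : R) = a * e := fun a ha => AA_e hw ha
  have c1 : ∀ a ∈ AA I D₀, e1 * (a : R) = a * e1 := fun a ha => AA_e1 hF hw ha
  have c2 : ∀ a ∈ AA I D₀, (e + e1) * (a : R) = a * (e + e1) := fun a ha => by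
    rw [add_mul, mul_add, c0 a ha, c1 a ha]
  have c3 : ∀ a ∈ AA I D₀, (1 - (e + e1)) * (a : R) = a * (1 - (e + e1)) := fun a ha => by
    rw [sub_mul, mul_sub, c2 a ha, one_mul, mul_one]
  have hff : (e + e1) * (e + e1) = e + e1 := by
    rw [add_mul, mul_add, mul_add, h.ee, h.ee1, h.e1e, h.e11, add_zero, zero_add]
  have hgg : (1 - (e + e1)) * (1 - (e + e1)) = 1 - (e + e1) := by
    rw [mul_sub, mul_one, sub_mul, one_mul, hff, sub_self, sub_zero]
  have hfg : (e + e1) * (1 - (e + e1)) = 0 := by rw [mul_sub, mul_one, hff, sub_self]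
  have hgf : (1 - (e + e1)) * (e + e1) = 0 := by rw [sub_mul, one_mul, hff, sub_self]
  -- commuting with the idempotents
  refine swap_inv (A1 := fixer (AA I D₀) (1 - e)) (A2 := fixer (AA I D₀) (1 - e1)) (A0 := fixer (AA I D₀) (e + e1))
    ?_ ?_ ?_ ?_ (nh (AA I D₀) (y₀ : Rˣ) (hyN hF hw)) (nh (AA I D₀) (ww hF hw) (hwN hF hw)) ?_ ?_ ?_ ?_ ?_ hχ hα a
  · intro a ha b hb
    have hbe : ((b : Rˣ) : R) * e = e := by
      have h1 : ((b : Rˣ) : R) * (1 - e1) * e = (1 - e1) * e := by rw [mem_fixer.1 hb]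
      rwa [mul_assoc, sub_mul, one_mul, h.e1e, sub_zero] at h1
    exact Subtype.ext (Units.ext (comm_of_supp (mem_fixer.1 ha) hbe (c0 _ a.2).symm (c0 _ b.2).symm))
  · intro a ha b hb
    have hbe : ((b : Rˣ) : R) * e = e := by
      have h1 : ((b : Rˣ) : R) * (e + e1) * e = (e + e1) * e := by rw [mem_fixer.1 hb]
      rwa [mul_assoc, add_mul, h.ee, h.e1e, add_zero] at h1
    exact Subtype.ext (Units.ext (comm_of_supp (mem_fixer.1 ha) hbe (c0 _ a.2).symm (c0 _ b.2).symm))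
  · intro a ha b hb
    have hbe : ((b : Rˣ) : R) * e1 = e1 := by
      have h1 : ((b : Rˣ) : R) * (e + e1) * e1 = (e + e1) * e1 := by rw [mem_fixer.1 hb]
      rwa [mul_assoc, add_mul, h.e11, h.ee1, zero_add] at h1
    exact Subtype.ext (Units.ext (comm_of_supp (mem_fixer.1 ha) hbe (c1 _ a.2).symm (c1 _ b.2).symm))
  · intro g
    have m0 := cut_mem hF g.2 hw.idem hw.star (c0 _ g.2) (fun d hd => (c0 _ (hDcomm d hd)).symm)
    have m1 := cut_mem hF g.2 h.e11 he1s (c1 _ g.2) (fun d hd => (c1 _ (hDcomm d hd)).symm)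
    have m2 := cut_mem hF g.2 hgg (by rw [map_sub, map_add, hF.one, hw.star, he1s]) (c3 _ g.2)
      (fun d hd => (c3 _ (hDcomm d hd)).symm)
    refine ⟨⟨_, m0⟩, ?_, ⟨_, m1⟩, ?_, ⟨_, m2⟩, ?_, ?_⟩
    · exact cut_mul_self (g : Rˣ) e hw.idem (c0 _ g.2)
    · exact cut_mul_self (g : Rˣ) e1 h.e11 (c1 _ g.2)
    · exact cut_mul_orth (g : Rˣ) (1 - (e + e1)) (e + e1) hgg (c3 _ g.2) hgf
    · apply Subtype.ext
      apply Units.ext
      have k1 := cut_mul (g := ((g : Rˣ) : R)) (c0 _ g.2) h.ee1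
      have k2 := cut_mul (g := ((g : Rˣ) : R)) (c2 _ g.2) hfg
      show ((g : Rˣ) : R) = (((g : Rˣ) : R) * e + (1 - e)) * (((g : Rˣ) : R) * e1 + (1 - e1)) *
        (((g : Rˣ) : R) * (1 - (e + e1)) + (1 - (1 - (e + e1))))
      rw [k1, k2]
      have e3 : e + e1 + (1 - (e + e1)) = 1 := by abel
      rw [e3, sub_self, mul_one, add_zero]
  · intro a ha
    rw [mem_fixer, nh_coe, Units.val_mul, Units.val_mul]
    have k1 : y' * (1 - e1) = (1 - e) * y' := by rw [mul_sub, mul_one, h.y'e, sub_mul, one_mul]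
    have k2 : y * (1 - e) = (1 - e1) * y := by rw [mul_sub, mul_one, h.ye, sub_mul, one_mul]
    calc y * ((a : Rˣ) : R) * y' * (1 - e1) = y * (((a : Rˣ) : R) * (1 - e)) * y' := by
          rw [mul_assoc, k1]
          simp only [mul_assoc]
      _ = y * (1 - e) * y' := by rw [mem_fixer.1 ha]
      _ = _ := by rw [k2, mul_assoc, h.yy', mul_one]
  · intro b hb
    rw [mem_fixer, nh_inv_coe, Units.val_mul, Units.val_mul]
    have k1 : y' * (1 - e1) = (1 - e) * y' := by rw [mul_sub, mul_one, h.y'e, sub_mul, one_mul]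
    have k2 : y * (1 - e) = (1 - e1) * y := by rw [mul_sub, mul_one, h.ye, sub_mul, one_mul]
    calc y' * ((b : Rˣ) : R) * y * (1 - e) = y' * (((b : Rˣ) : R) * (1 - e1)) * y := by
          rw [mul_assoc, k2]
          simp only [mul_assoc]
      _ = y' * (1 - e1) * y := by rw [mem_fixer.1 hb]
      _ = _ := by rw [k1, mul_assoc, h.y'y, mul_one]
  · intro a ha
    apply Subtype.ext
    apply Units.ext
    rw [nh_coe, nh_coe]
    exact h.W_conj (mem_fixer.1 ha) (c0 _ a.2)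
  · intro b hb
    apply Subtype.ext
    apply Units.ext
    rw [nh_coe, nh_inv_coe]
    exact h.W_conj' (mem_fixer.1 hb) (c1 _ b.2)
  · intro c hc
    apply Subtype.ext
    rw [nh_coe]
    have hce : ((c : Rˣ) : R) * e = e := by
      have h1 : ((c : Rˣ) : R) * (e + e1) * e = (e + e1) * e := by rw [mem_fixer.1 hc]
      rwa [mul_assoc, add_mul, h.ee, h.e1e, add_zero] at h1
    have hce1 : ((c : Rˣ) : R) * e1 = e1 := by
      have h1 : ((c : Rˣ) : R) * (e + e1) * e1 = (e + e1) * e1 := by rw [mem_fixer.1 hc]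
      rwa [mul_assoc, add_mul, h.e11, h.ee1, zero_add] at h1
    have k1 : ww hF hw * (c : Rˣ) = (c : Rˣ) * ww hF hw :=
      Units.ext (h.W_comm hce hce1 ((c0 _ c.2).trans hce) ((c1 _ c.2).trans hce1))
    rw [k1, mul_inv_cancel_right]

end Main

/-- **the criterion** -/
theorem noCfgB_of (hPA : PA) (hPC : PC) {F R S : Type} [Field F] [Ring R] [Algebra F R] [Finite R] [Group S] [Finite S]
    (h2 : (2 : F) ≠ 0) {σ : R →+ R} (hσ : ∀ (c : F) (r : R), σ (c • r) = c • σ r) {I X : Subgroup Rˣ} {π : X →* S}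
    (hF : Frame σ I X π) : NoCfgB S := by
  classical
  intro D x θ hc
  obtain ⟨y, hy, hyθ⟩ := hc.inv
  obtain ⟨y₀, rfl, hm⟩ := lift_five hF hy.five
  have hab := hPA h2 σ I X π hF D x (π y₀) hc.toCfg hy
  obtain ⟨D₀, e, t, hw⟩ := hPC h2 σ hσ I X π hF D x y₀ hc.toCfg hy hm hab
  have : Finite Rˣ := inferInstance
  have hyI : (y₀ : Rˣ) ∈ I := hF.le y₀.2
  have hy2 : (y₀ : Rˣ) ^ 2 ∈ I := I.pow_mem hyI 2
  have hwI := ww_mem hF hw
  -- the element `w y² w⁻¹ y⁻²`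
  let gX : X := ⟨ww hF hw * (y₀ : Rˣ) ^ 2 * (ww hF hw)⁻¹ * ((y₀ : Rˣ) ^ 2)⁻¹, hF.comm _ hwI _ hy2⟩
  have hgX : (gX : Rˣ) = ww hF hw * vv hF hw := by
    show ww hF hw * (y₀ : Rˣ) ^ 2 * (ww hF hw)⁻¹ * ((y₀ : Rˣ) ^ 2)⁻¹ = _
    rw [ww_inv]
    unfold vv
    simp only [mul_assoc]
  have hg2 : gX * gX = 1 := by
    apply Subtype.ext
    rw [Subgroup.coe_mul, hgX, Subgroup.coe_one]
    calc ww hF hw * vv hF hw * (ww hF hw * vv hF hw) = ww hF hw * (vv hF hw * ww hF hw) * vv hF hw := by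
          simp only [mul_assoc]
      _ = (ww hF hw * ww hF hw) * (vv hF hw * vv hF hw) := by rw [vv_comm]; simp only [mul_assoc]
      _ = 1 := by rw [ww_sq, vv_sq, one_mul]
  have hginv : gX⁻¹ = gX := inv_eq_of_mul_eq_one_right hg2
  -- it normalises `D₀`
  have hgn : (gX : Rˣ) ∈ Subgroup.normalizer (D₀.map X.subtype : Set Rˣ) := by
    have h1 := ww_norm hF hw
    have h3 := pow_mem (y_norm hw) 2
    exact mul_mem (mul_mem (mul_mem h1 h3) (inv_mem h1)) (inv_mem h3)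
  have hgD₀ : ∀ d ∈ D₀, gX * d * gX⁻¹ ∈ D₀ := by
    intro d hd
    obtain ⟨d', hd', h'⟩ := (Subgroup.mem_normalizer_iff.1 hgn (d : Rˣ)).1 ⟨d, hd, rfl⟩
    have : gX * d * gX⁻¹ = d' := Subtype.ext h'.symm
    rw [this]
    exact hd'
  have hgD : ∀ d ∈ D, π gX * d * (π gX)⁻¹ ∈ D := by
    intro d hd
    rw [← hw.map] at hd ⊢
    obtain ⟨d₀, hd₀, rfl⟩ := hd
    exact ⟨gX * d₀ * gX⁻¹, hgD₀ d₀ hd₀, by rw [map_mul, map_mul, map_inv]⟩
  -- the groups of Clifford's theorem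
  let A := AA I D₀
  let C : Subgroup A := X.subgroupOf A
  have hCmem : ∀ a : A, a ∈ C ↔ (a : Rˣ) ∈ X := fun a => Subgroup.mem_subgroupOf
  have hnorm : ∀ (u : Rˣ), u ∈ I → ∀ g : Rˣ, u * g * u⁻¹ ∈ X ↔ g ∈ X := by
    intro u hu g
    refine ⟨fun h => ?_, fun h => X_norm hF hu h⟩
    have h1 := X_norm hF (I.inv_mem hu) h
    have e1 : u⁻¹ * (u * g * u⁻¹) * u⁻¹⁻¹ = g := by group
    rwa [e1] at h1
  haveI hCn : C.Normal := ⟨fun c hc a => (hCmem _).2 (X_norm hF (mem_AA.1 a.2).1 ((hCmem c).1 hc))⟩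
  have hidx : C.index ≤ 4 := by
    have h1 : X.relIndex A ≤ X.relIndex I := by
      refine Subgroup.relIndex_le_of_le_right inf_le_left ?_
      show (X.subgroupOf I).index ≠ 0
      exact Subgroup.index_ne_zero_of_finite
    exact h1.trans hF.idx
  -- the character of `C`
  have hψmem : ∀ c : C, π ⟨((c : A) : Rˣ), (hCmem c).1 c.2⟩ ∈ Subgroup.centralizer (D : Set S) := by
    intro c
    rw [Subgroup.mem_centralizer_iff]
    intro d hd
    have hd' : d ∈ D₀.map π := by rw [hw.map]; exact hd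
    obtain ⟨d₀, hd₀, rfl⟩ := hd'
    rw [← map_mul, ← map_mul]
    congr 1
    exact Subtype.ext ((mem_AA.1 (c : A).2).2 d₀ hd₀)
  let ψ : C →* Subgroup.centralizer (D : Set S) :=
    { toFun := fun c => ⟨π ⟨((c : A) : Rˣ), (hCmem c).1 c.2⟩, hψmem c⟩
      map_one' := Subtype.ext (map_one π)
      map_mul' := fun a b => Subtype.ext (map_mul π ⟨((a : A) : Rˣ), (hCmem a).1 a.2⟩ ⟨((b : A) : Rˣ), (hCmem b).1 b.2⟩) }
  have hψ : ∀ (c : C) (g : X), ((c : A) : Rˣ) = g → ((ψ c : Subgroup.centralizer (D : Set S)) : S) = π g := by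
    intro c g h
    show π ⟨((c : A) : Rˣ), (hCmem c).1 c.2⟩ = π g
    congr 1
    exact Subtype.ext h
  have hψs : Function.Surjective ψ := by
    intro s
    obtain ⟨g, hg⟩ := hF.surj (s : S)
    have h1 : ∀ d ∈ D₀, g * d = d * g := by
      apply hw.surj
      intro d hd
      rw [hg]
      exact ((Subgroup.mem_centralizer_iff.1 s.2) d hd).symm
    have h3 : (g : Rˣ) ∈ A := mem_AA.2 ⟨hF.le g.2, fun d hd => congrArg Subtype.val (h1 d hd).symm⟩
    refine ⟨⟨⟨(g : Rˣ), h3⟩, (hCmem _).2 g.2⟩, Subtype.ext ?_⟩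
    rw [hψ _ g rfl, hg]
  obtain ⟨m, hm'⟩ := hm
  have hyN := hyN hF hw
  have hwN := hwN hF hw
  have hres := char_swap C hidx (nh A (y₀ : Rˣ) hyN) (nh A (ww hF hw) hwN) (m := m)
    (fun a => by rw [hCmem, hCmem, nh_coe]; exact hnorm _ hyI _)
    (fun a => by rw [hCmem, hCmem, nh_coe]; exact hnorm _ hwI _)
    (nh_pow A _ _ (by rw [← Subgroup.coe_pow, ← hm', pow_orderOf_eq_one, Subgroup.coe_one]))
    (fun a => by
      rw [hCmem, Subgroup.coe_mul, nh_coe, nh_coe, Subgroup.coe_inv]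
      have h1 := hF.comm _ hy2 _ (mem_AA.1 a.2).1
      have e1 : (y₀ : Rˣ) * ((y₀ : Rˣ) * (a : Rˣ) * (y₀ : Rˣ)⁻¹) * (y₀ : Rˣ)⁻¹ * (a : Rˣ)⁻¹ =
          (y₀ : Rˣ) ^ 2 * (a : Rˣ) * ((y₀ : Rˣ) ^ 2)⁻¹ * (a : Rˣ)⁻¹ := by
        rw [sq]
        group
      rw [e1]
      exact h1)
    (isIrr_comp ψ hψs θ.2)
    (fun c c' h => by
      have h1 : (((ψ c' : Subgroup.centralizer (D : Set S)) : S)) = π y₀ * (ψ c : Subgroup.centralizer (D : Set S)) * (π y₀)⁻¹ := by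
        rw [hψ c ⟨((c : A) : Rˣ), (hCmem c).1 c.2⟩ rfl, ← map_inv, ← map_mul, ← map_mul]
        refine hψ c' _ ?_
        rw [h, nh_coe]
        rfl
      exact hyθ (ψ c) (ψ c') h1)
    (fun χ hχ hα a => char_inv hF hw hχ hα a)
  -- the conclusion
  have hcom := hc.odd2 (π gX) (fun d => by
      refine ⟨fun h => ?_, hgD d⟩
      have h1 := hgD _ h
      have e1 : π gX * (π gX * d * (π gX)⁻¹) * (π gX)⁻¹ = (π gX * π gX) * d * (π gX * π gX)⁻¹ := by group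
      rw [e1, ← map_mul, hg2, map_one, one_mul, inv_one, mul_one] at h1
      exact h1) (by
      have h1 : π gX ^ 2 = 1 := by rw [sq, ← map_mul, hg2, map_one]
      rcases (Nat.dvd_prime Nat.prime_two).1 (orderOf_dvd_of_pow_eq_one h1) with h3 | h3
      · exact ⟨0, h3⟩
      · exact ⟨1, h3⟩)
    (fun s s' hs => by
      obtain ⟨c, rfl⟩ := hψs s
      have hcX : ((c : A) : Rˣ) ∈ X := (hCmem c).1 c.2
      have hgN : (gX : Rˣ) ∈ Subgroup.normalizer (A : Set Rˣ) := AA_conj (hF.le gX.2) hgn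
      let c' : C := ⟨nh A (gX : Rˣ) hgN c, (hCmem _).2 (by
        rw [nh_coe]
        exact X.mul_mem (X.mul_mem gX.2 hcX) (X.inv_mem gX.2))⟩
      have hc' : ((c' : A) : Rˣ) = gX * ((c : A) : Rˣ) * (gX : Rˣ)⁻¹ := rfl
      have h1 : ψ c' = s' := by
        apply Subtype.ext
        rw [hs, hψ c ⟨((c : A) : Rˣ), hcX⟩ rfl, ← map_inv, ← map_mul, ← map_mul]
        exact hψ c' _ (by rw [hc']; rfl)
      rw [← h1]
      refine hres c c' ?_
      apply Subtype.ext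
      rw [hc', nh_coe, nh_coe, nh_coe, nh_inv_coe, nh_inv_coe, nh_inv_coe]
      show ww hF hw * (y₀ : Rˣ) ^ 2 * (ww hF hw)⁻¹ * ((y₀ : Rˣ) ^ 2)⁻¹ * ((c : A) : Rˣ) *
        (ww hF hw * (y₀ : Rˣ) ^ 2 * (ww hF hw)⁻¹ * ((y₀ : Rˣ) ^ 2)⁻¹)⁻¹ = _
      simp only [sq, mul_inv_rev, inv_inv, mul_assoc])
  have h1 : ∀ d ∈ D₀, gX * d = d * gX := hw.surj gX hcom
  have h3 : e * ((gX : Rˣ) : R) = ((gX : Rˣ) : R) * e := hw.cent _ fun d hd =>
    congrArg (fun u : X => ((u : Rˣ) : R)) (h1 d hd).symm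
  have h4 : ((gX : Rˣ) : R) * e = ((y₀ : Rˣ) : R) * e := by
    rw [hgX, Units.val_mul, mul_assoc, vv_e]
    exact (sw hF hw).We
  have h5 : ((y₀ : Rˣ) : R) * e = 0 := by
    calc ((y₀ : Rˣ) : R) * e = ((gX : Rˣ) : R) * (e * e) := by rw [hw.idem, h4]
      _ = e * (((gX : Rˣ) : R) * e) := by rw [← mul_assoc, ← mul_assoc, h3]
      _ = 0 := by rw [h4]; exact (sw hF hw).eye
  apply hw.ne
  calc e = (((y₀ : Rˣ)⁻¹ : Rˣ) : R) * (((y₀ : Rˣ) : R) * e) := by rw [← mul_assoc, Units.inv_mul, one_mul]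
    _ = 0 := by rw [h5, mul_zero]

end Cfsg.Agent.H352.KS
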