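import Cfsg.Agent.H352.KS.Main
import Cfsg.Agent.H352.KS.Wt
import Cfsg.Agent.H5.KS.PA
import Cfsg.Agent.H390.KS.PC1
import Cfsg.Agent.H263.KS.PC2
import Cfsg.Agent.H639.KS.PD
import Cfsg.Agent.H170.KS.PD2
import Cfsg.Agent.LieClassical.OmegaReindex
import Cfsg.Agent.S0292

/-!
# S4577: the rows `PSp_2m(q)`, `POmega_n(q)`, `q` odd (helper352)
-/

set_option autoImplicit false

open Cfsg Cfsg.Agent.H613.KS

namespace Cfsg.Agent.H352.KS

variable {F : Type} [Field F] [Fintype F] {p : ℕ} [Fact p.Prime] [CharP F p] (hp : p ≠ 2)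

include hp in
theorem two_ne : (2 : F) ≠ 0 := by
  intro h
  have h1 : p ∣ 2 := (CharP.cast_eq_zero_iff F p 2).1 (by exact_mod_cast h)
  exact hp ((Nat.prime_dvd_prime_iff_eq (Fact.out : p.Prime) Nat.prime_two).1 h1)

theorem noCfgB_pomega {F : Type} [Field F] [Finite F] (h2 : (2 : F) ≠ 0) {ι : Type} [Fintype ι] [DecidableEq ι]
    (Q : QuadraticForm F (ι → F)) (hQ : (QuadraticMap.polarBilin Q).Nondegenerate) (hn : 3 ≤ Fintype.card ι)
    (hs : ∃ u : ι → F, u ≠ 0 ∧ Q u = 0) : NoCfgB (Cfsg.POmega F (⇑Q)) := by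
  obtain ⟨σ, I, X, π, hF, hσ⟩ := H170.KS.pd2 h2 Q hQ hn hs
  exact noCfgB_of H5.KS.pa (pc_of H390.KS.pc1 H263.KS.pc2) h2 hσ hF

include hp

theorem psp (m : ℕ) (hm : 2 ≤ m) : NoCfgB (PSp m F) := by
  obtain ⟨σ, I, X, π, hF, hσ⟩ := H639.KS.pd1 (two_ne (F := F) hp) m (by omega)
  exact noCfgB_of H5.KS.pa (pc_of H390.KS.pc1 H263.KS.pc2) (two_ne (F := F) hp) hσ hF

theorem omega_odd (m : ℕ) (hm : 3 ≤ m) : NoCfgB (POmega F (quadFormOdd m F)) := by
  rw [← Cfsg.Agent.LieClassical.QuadForms.coe_oddForm]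
  exact noCfgB_pomega (two_ne hp) _ (Cfsg.Agent.S0292.oddForm_nondegenerate (two_ne hp) m) (by simp; omega)
    (Cfsg.Agent.S0292.exists_singular (by omega))

theorem omega_plus (m : ℕ) (hm : 4 ≤ m) : NoCfgB (POmega F (quadFormPlus m F)) := by
  rw [← Cfsg.Agent.LieClassical.OmegaReindex.coe_quadPlus]
  exact noCfgB_pomega (two_ne hp) _ Cfsg.Agent.LieClassical.OmegaReindex.quadPlus_nondegenerate (by simp; omega)
    (Cfsg.Agent.LieClassical.OmegaReindex.quadPlus_isotropic (by omega))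

theorem omega_minus (m : ℕ) (a b : F) (hm : 4 ≤ m)
    (hab : ∀ z₁ z₂ : F, z₁ ^ 2 + a * z₁ * z₂ + b * z₂ ^ 2 = 0 → z₁ = 0 ∧ z₂ = 0) :
    NoCfgB (POmega F (quadFormMinus (m - 1) F a b)) := by
  rw [← Cfsg.Agent.LieClassical.OmegaReindex.coe_quadMinus]
  exact noCfgB_pomega (two_ne hp) _ (Cfsg.Agent.LieClassical.OmegaReindex.quadMinus_nondegenerate hab) (by simp; omega)
    (Cfsg.Agent.LieClassical.OmegaReindex.quadMinus_isotropic (by omega) a b)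

end Cfsg.Agent.H352.KS
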